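import Mathlib
import Cfsg.Agent.Lib.Helper4.FCDefs
import Cfsg.Agent.S0055

/-! Project FC (S4146), piece V1B3 (duplicate seat helper3). -/

namespace Cfsg.Agent.Lib.Helper4.FC

universe u

open scoped commutatorElement

/-- conjugation by `y` commutes with conjugation by `z` on `V1` when `[z, y]` centralizes `V1` -/
theorem v1b3_helper3_key {G : Type u} [Group G] (V1 : Subgroup G) (z y : G)
    (hc : z⁻¹ * y⁻¹ * z * y ∈ Subgroup.centralizer (V1 : Set G)) (x : G) (hx : x ∈ V1) :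
    z * (y * x * y⁻¹) * z⁻¹ = y * (z * x * z⁻¹) * y⁻¹ := by
  have h1 := Subgroup.mem_centralizer_iff.1 hc x hx
  have h2 : (z⁻¹ * y⁻¹ * z * y) * x * (z⁻¹ * y⁻¹ * z * y)⁻¹ = x := by
    rw [← h1]; group
  calc z * (y * x * y⁻¹) * z⁻¹
      = y * z * ((z⁻¹ * y⁻¹ * z * y) * x * (z⁻¹ * y⁻¹ * z * y)⁻¹) * z⁻¹ * y⁻¹ := by group
    _ = y * (z * x * z⁻¹) * y⁻¹ := by rw [h2]; group

theorem v1b3_helper3_key2 {G : Type u} [Group G] (V1 : Subgroup G) (hV1n : V1.Normal) (z y : G)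
    (hc : z⁻¹ * y⁻¹ * z * y ∈ Subgroup.centralizer (V1 : Set G)) (a : G)
    (ha : a ∈ Subgroup.zpowers z) (x : G) (hx : x ∈ V1) :
    a * (y * x * y⁻¹) * a⁻¹ = y * (a * x * a⁻¹) * y⁻¹ := by
  have := hV1n
  have hcomm : Commute (MulAut.conjNormal (H := V1) z) (MulAut.conjNormal (H := V1) y) := by
    apply MulEquiv.ext
    intro w
    apply Subtype.ext
    simp only [MulAut.mul_apply, MulAut.conjNormal_apply]
    exact v1b3_helper3_key V1 z y hc w w.2
  obtain ⟨k, rfl⟩ := Subgroup.mem_zpowers_iff.1 ha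
  have h2 : Commute (MulAut.conjNormal (H := V1) (z ^ k)) (MulAut.conjNormal (H := V1) y) := by
    rw [map_zpow]
    exact hcomm.zpow_left k
  have h3 := DFunLike.congr_fun h2.eq ⟨x, hx⟩
  have h4 := congrArg Subtype.val h3
  simpa only [MulAut.mul_apply, MulAut.conjNormal_apply] using h4

theorem fc_v1b3 : V1b3Stmt.{u} := by
  intro G _ _ t s d S V1 z ht hs hst hV1n hV1p hV1ab hd hzS hzV hzc v hv hzv
  by_contra hv1
  have : Fact t.Prime := ⟨ht⟩
  have : Fact s.Prime := ⟨hs⟩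
  have hAS : Subgroup.zpowers z ≤ (S : Subgroup G) := by
    rw [Subgroup.zpowers_le]; exact hzS
  have : IsMulCommutative V1 := ⟨⟨fun a b => Subtype.ext (hV1ab a a.2 b b.2)⟩⟩
  have hAV : Subgroup.zpowers z ≤ Subgroup.normalizer (V1 : Set G) := by
    rw [Subgroup.normalizer_eq_top]; exact le_top
  have hcop : (Nat.card (Subgroup.zpowers z)).Coprime (Nat.card V1) :=
    IsPGroup.coprime_card_of_ne s t hst _ _ (S.isPGroup'.to_le hAS) hV1p
  obtain ⟨hinf, hsup⟩ := Cfsg.Agent.S0055.result (Subgroup.zpowers z) V1 hAV hcop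
  have hKV : ⁅V1, Subgroup.zpowers z⁆ ≤ V1 := by
    calc ⁅V1, Subgroup.zpowers z⁆ ≤ (V1 ⊓ Subgroup.centralizer (Subgroup.zpowers z : Set G)) ⊔
          ⁅V1, Subgroup.zpowers z⁆ := le_sup_right
      _ = V1 := hsup
  -- membership in `F`
  have hFmem : ∀ x ∈ V1, z * x = x * z →
      x ∈ V1 ⊓ Subgroup.centralizer (Subgroup.zpowers z : Set G) := by
    intro x hx hzx
    refine Subgroup.mem_inf.2 ⟨hx, ?_⟩
    rw [Subgroup.mem_centralizer_iff]
    intro a ha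
    obtain ⟨k, rfl⟩ := Subgroup.mem_zpowers_iff.1 ha
    exact ((show Commute z x from hzx).zpow_left k).eq
  -- `K ≠ ⊥`
  have hKne : ⁅V1, Subgroup.zpowers z⁆ ≠ ⊥ := by
    intro hK
    rw [hK, sup_bot_eq] at hsup
    apply hzV
    rw [Subgroup.mem_centralizer_iff]
    intro h hh
    have h1 : h ∈ V1 ⊓ Subgroup.centralizer (Subgroup.zpowers z : Set G) := by rw [hsup]; exact hh
    exact ((Subgroup.mem_centralizer_iff.1 h1.2) z (Subgroup.mem_zpowers z)).symm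
  obtain ⟨w', hw'K, hw'1⟩ : ∃ w' ∈ ⁅V1, Subgroup.zpowers z⁆, w' ≠ 1 := by
    by_contra hcon
    apply hKne
    rw [eq_bot_iff]
    intro x hx
    by_contra hx1
    exact hcon ⟨x, hx, fun h => hx1 (Subgroup.mem_bot.2 h)⟩
  have hw'V : w' ∈ V1 := hKV hw'K
  have hvF := hFmem v hv hzv
  -- invariance of `F` under `S`
  have hFinv : ∀ y ∈ S, ∀ x ∈ V1 ⊓ Subgroup.centralizer (Subgroup.zpowers z : Set G),
      y * x * y⁻¹ ∈ V1 ⊓ Subgroup.centralizer (Subgroup.zpowers z : Set G) := by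
    intro y hy x hx
    obtain ⟨hxV, hxC⟩ := Subgroup.mem_inf.1 hx
    refine Subgroup.mem_inf.2 ⟨hV1n.conj_mem x hxV y, ?_⟩
    rw [Subgroup.mem_centralizer_iff]
    intro a ha
    have h1 := v1b3_helper3_key2 V1 hV1n z y (hzc y hy) a ha x hxV
    have h2 := Subgroup.mem_centralizer_iff.1 hxC a ha
    have h3 : a * x * a⁻¹ = x := by rw [h2]; group
    rw [h3] at h1
    calc a * (y * x * y⁻¹) = a * (y * x * y⁻¹) * a⁻¹ * a := by group
      _ = y * x * y⁻¹ * a := by rw [h1]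
  -- invariance of `K` under `S`
  have hKinv : ∀ y ∈ S, ∀ x ∈ ⁅V1, Subgroup.zpowers z⁆,
      y * x * y⁻¹ ∈ ⁅V1, Subgroup.zpowers z⁆ := by
    intro y hy
    have hle : ⁅V1, Subgroup.zpowers z⁆ ≤
        (⁅V1, Subgroup.zpowers z⁆).comap (MulAut.conj y).toMonoidHom := by
      rw [Subgroup.commutator_le]
      intro g₁ h₁ g₂ h₂
      rw [Subgroup.mem_comap]
      show y * ⁅g₁, g₂⁆ * y⁻¹ ∈ ⁅V1, Subgroup.zpowers z⁆
      have h1 := v1b3_helper3_key2 V1 hV1n z y (hzc y hy) g₂ h₂ g₁⁻¹ (V1.inv_mem h₁)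
      have h2 : y * ⁅g₁, g₂⁆ * y⁻¹ = ⁅y * g₁ * y⁻¹, g₂⁆ := by
        rw [commutatorElement_def, commutatorElement_def]
        calc y * (g₁ * g₂ * g₁⁻¹ * g₂⁻¹) * y⁻¹
            = y * g₁ * y⁻¹ * (y * (g₂ * g₁⁻¹ * g₂⁻¹) * y⁻¹) := by group
          _ = y * g₁ * y⁻¹ * (g₂ * (y * g₁⁻¹ * y⁻¹) * g₂⁻¹) := by rw [h1]
          _ = y * g₁ * y⁻¹ * g₂ * (y * g₁ * y⁻¹)⁻¹ * g₂⁻¹ := by group
      rw [h2]
      exact Subgroup.commutator_mem_commutator (hV1n.conj_mem g₁ h₁ y) h₂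
    intro x hx
    exact hle hx
  -- an element of `S` commuting with `v * w'` commutes with both
  have hsplit : ∀ y ∈ S, y * (v * w') = (v * w') * y → y * v = v * y ∧ y * w' = w' * y := by
    intro y hy hyc
    have hF1 := hFinv y hy v hvF
    have hK1 := hKinv y hy w' hw'K
    have heq : v⁻¹ * (y * v * y⁻¹) = w' * (y * w' * y⁻¹)⁻¹ := by
      have h0 : (y * v * y⁻¹) * (y * w' * y⁻¹) = v * w' := by
        calc (y * v * y⁻¹) * (y * w' * y⁻¹) = y * (v * w') * y⁻¹ := by group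
          _ = v * w' * y * y⁻¹ := by rw [hyc]
          _ = v * w' := by group
      calc v⁻¹ * (y * v * y⁻¹)
          = v⁻¹ * ((y * v * y⁻¹) * (y * w' * y⁻¹)) * (y * w' * y⁻¹)⁻¹ := by group
        _ = v⁻¹ * (v * w') * (y * w' * y⁻¹)⁻¹ := by rw [h0]
        _ = w' * (y * w' * y⁻¹)⁻¹ := by group
    have hmF : v⁻¹ * (y * v * y⁻¹) ∈ V1 ⊓ Subgroup.centralizer (Subgroup.zpowers z : Set G) :=
      Subgroup.mul_mem _ (Subgroup.inv_mem _ hvF) hF1
    have hmK : v⁻¹ * (y * v * y⁻¹) ∈ ⁅V1, Subgroup.zpowers z⁆ := by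
      rw [heq]
      exact Subgroup.mul_mem _ hw'K (Subgroup.inv_mem _ hK1)
    have hbot : v⁻¹ * (y * v * y⁻¹) ∈ (⊥ : Subgroup G) := by
      rw [← hinf]
      exact Subgroup.mem_inf.2 ⟨hmF, hmK⟩
    have h1 : v⁻¹ * (y * v * y⁻¹) = 1 := Subgroup.mem_bot.1 hbot
    have h2 : w' * (y * w' * y⁻¹)⁻¹ = 1 := by rw [← heq]; exact h1
    constructor
    · calc y * v = v * (v⁻¹ * (y * v * y⁻¹)) * y := by group
        _ = v * y := by rw [h1]; group
    · calc y * w' = (w' * (y * w' * y⁻¹)⁻¹)⁻¹ * w' * y := by group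
        _ = w' * y := by rw [h2]; group
  -- `v * w' ≠ 1`
  have hvw1 : v * w' ≠ 1 := by
    intro h
    have h1 : v = w'⁻¹ := eq_inv_of_mul_eq_one_left h
    have hbot : v ∈ (⊥ : Subgroup G) := by
      rw [← hinf]
      refine Subgroup.mem_inf.2 ⟨hvF, ?_⟩
      rw [h1]
      exact Subgroup.inv_mem _ hw'K
    exact hv1 (Subgroup.mem_bot.1 hbot)
  have hd1 := hd v hv hv1
  have hd2 := hd (v * w') (V1.mul_mem hv hw'V) hvw1
  have hle : (Cen (v * w')).subgroupOf (S : Subgroup G) ≤ (Cen v).subgroupOf (S : Subgroup G) := by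
    intro y hy
    rw [Subgroup.mem_subgroupOf] at hy ⊢
    have h1 : (y : G) * (v * w') = (v * w') * y :=
      (Subgroup.mem_centralizer_iff.1 hy (v * w') (Set.mem_singleton _)).symm
    rw [Subgroup.mem_centralizer_iff]
    intro h hh
    rw [Set.mem_singleton_iff] at hh
    rw [hh]
    exact ((hsplit y y.2 h1).1).symm
  have hidx := Subgroup.relIndex_mul_index hle
  have hd1' : ((Cen v).subgroupOf (S : Subgroup G)).index = d := hd1
  have hd2' : ((Cen (v * w')).subgroupOf (S : Subgroup G)).index = d := hd2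
  have hdne : d ≠ 0 := by
    rw [← hd1']
    exact Subgroup.index_ne_zero_of_finite
  rw [hd1', hd2'] at hidx
  have hrel : ((Cen (v * w')).subgroupOf (S : Subgroup G)).relIndex
      ((Cen v).subgroupOf (S : Subgroup G)) = 1 := by
    have h0 : 0 < d := Nat.pos_of_ne_zero hdne
    exact Nat.eq_of_mul_eq_mul_right h0 (by rw [hidx, one_mul])
  have hge := Subgroup.relIndex_eq_one.1 hrel
  have hzmem : (⟨z, hzS⟩ : (S : Subgroup G)) ∈ (Cen v).subgroupOf (S : Subgroup G) := by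
    rw [Subgroup.mem_subgroupOf, Subgroup.mem_centralizer_iff]
    intro h hh
    rw [Set.mem_singleton_iff] at hh
    rw [hh]
    exact hzv.symm
  have hzmem2 := hge hzmem
  rw [Subgroup.mem_subgroupOf] at hzmem2
  have hz2 : z * (v * w') = (v * w') * z :=
    (Subgroup.mem_centralizer_iff.1 hzmem2 (v * w') (Set.mem_singleton _)).symm
  have hzw' := (hsplit z hzS hz2).2
  have hw'F := hFmem w' hw'V hzw'
  have hbot : w' ∈ (⊥ : Subgroup G) := by
    rw [← hinf]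
    exact Subgroup.mem_inf.2 ⟨hw'F, hw'K⟩
  exact hw'1 (Subgroup.mem_bot.1 hbot)

end Cfsg.Agent.Lib.Helper4.FC
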