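import Mathlib
import Cfsg.Agent.Lib.Helper72.JPDefs
import Cfsg.Agent.Lib.Helper94.JcTH

/-!
# Project JP (helper72; S2948, S2949), piece SYL (helper3)
-/

set_option autoImplicit false

namespace Cfsg.Agent.Lib.Helper3.JP

open Cfsg.Agent.Lib.Helper72.JP Cfsg.Agent.Lib.Helper72.JM Cfsg.Agent.Lib.Helper72.JL
open Cfsg.Agent.Lib.Helper72.SC Cfsg.Agent.Lib.Helper78.Jc Cfsg.Agent.Lib.Helper94.Jc

open scoped commutatorElement
open scoped Pointwise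

universe u

/-- a 2-subgroup of `L` is contained in a conjugate of a Sylow 2-subgroup of `L` -/
theorem jpsyl_conj {G : Type u} [Group G] [Finite G] {T L S : Subgroup G}
    (hTL : Cfsg.IsSylowTwoIn T L) (hSL : S ≤ L) (hS2 : IsPGroup 2 ↥S) :
    ∃ x ∈ L, ∀ s ∈ S, x⁻¹ * s * x ∈ T := by
  obtain ⟨hT1, hT2, hT3⟩ := hTL
  have : Fact (Nat.Prime 2) := ⟨Nat.prime_two⟩
  have hT2' : IsPGroup 2 (T.subgroupOf L) := hT2.comap_subtype
  have hidx : ¬ 2 ∣ (T.subgroupOf L).index := by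
    intro h
    exact (Nat.not_even_iff_odd.mpr hT3) (even_iff_two_dvd.mpr h)
  obtain ⟨Q, hQ⟩ := (hS2.comap_subtype (K := L)).exists_le_sylow
  obtain ⟨g, hg⟩ := MulAction.exists_smul_eq ↥L (hT2'.toSylow hidx) Q
  refine ⟨g.1, g.2, fun s hs => ?_⟩
  have h1 : (⟨s, hSL hs⟩ : ↥L) ∈ (Q : Subgroup L) := hQ (Subgroup.mem_subgroupOf.mpr hs)
  have h2 : (⟨s, hSL hs⟩ : ↥L) ∈ MulAut.conj g • ((hT2'.toSylow hidx : Sylow 2 ↥L) : Subgroup L) := by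
    rw [← Sylow.coe_subgroup_smul, hg]; exact h1
  rw [Subgroup.mem_pointwise_smul_iff_inv_smul_mem] at h2
  have h3 : g⁻¹ * ⟨s, hSL hs⟩ * g ∈ T.subgroupOf L := by
    simpa [MulAut.smul_def] using h2
  exact Subgroup.mem_subgroupOf.mp h3

theorem jpsyl_map {G : Type u} [Group G] (B : Subgroup G) (g : G)
    (hc : ∀ a ∈ B, ∀ b ∈ B, a * b = b * a) (h2 : ∀ a ∈ B, a * a = 1) :
    (∀ a ∈ B.map (MulAut.conj g).toMonoidHom, ∀ b ∈ B.map (MulAut.conj g).toMonoidHom,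
        a * b = b * a) ∧
      (∀ a ∈ B.map (MulAut.conj g).toMonoidHom, a * a = 1) ∧
      Nat.card (B.map (MulAut.conj g).toMonoidHom) = Nat.card B := by
  refine ⟨?_, ?_, Subgroup.card_map_of_injective (MulAut.conj g).injective⟩
  · rintro _ ⟨x, hx, rfl⟩ _ ⟨y, hy, rfl⟩
    show g * x * g⁻¹ * (g * y * g⁻¹) = g * y * g⁻¹ * (g * x * g⁻¹)
    have e1 : g * x * g⁻¹ * (g * y * g⁻¹) = g * (x * y) * g⁻¹ := by group
    have e2 : g * y * g⁻¹ * (g * x * g⁻¹) = g * (y * x) * g⁻¹ := by group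
    rw [e1, e2, hc x hx y hy]
  · rintro _ ⟨x, hx, rfl⟩
    show g * x * g⁻¹ * (g * x * g⁻¹) = 1
    have e1 : g * x * g⁻¹ * (g * x * g⁻¹) = g * (x * x) * g⁻¹ := by group
    rw [e1, h2 x hx]
    group

theorem syl : SylStmt.{u} := by
  intro G _ _ T L K hTL hKL S hS hJS
  have hJT : Cfsg.thompsonSubgroupOf 2 T ≤ T := th_le_self T
  have hSL : S ≤ L := hS.1.trans (sup_le hKL (hJT.trans hTL.1))
  obtain ⟨x, hxL, hx⟩ := jpsyl_conj hTL hSL hS.2.1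
  obtain ⟨A₀, hA₀⟩ := th_exists T
  -- largest elementary abelian subgroups of `T` are such in `S`
  have h1 : ∀ A : Subgroup G, IsMaxEA T A → IsMaxEA S A := by
    intro A hA
    refine ⟨(th_le T A hA).trans hJS, hA.2.1, hA.2.2.1, fun B hBS hBc hB2 => ?_⟩
    obtain ⟨e1, e2, e3⟩ := jpsyl_map B x⁻¹ hBc hB2
    rw [← e3]
    refine hA.2.2.2 _ ?_ e1 e2
    rintro _ ⟨b, hb, rfl⟩
    show x⁻¹ * b * x⁻¹⁻¹ ∈ T
    rw [inv_inv]
    exact hx b (hBS hb)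
  have hle : Cfsg.thompsonSubgroupOf 2 T ≤ Cfsg.thompsonSubgroupOf 2 S :=
    th_le_of_forall T _ (fun A hA => th_le S A (h1 A hA))
  have h2 : ∀ B : Subgroup G, IsMaxEA S B →
      IsMaxEA T (B.map (MulAut.conj x⁻¹).toMonoidHom) := by
    intro B hB
    obtain ⟨e1, e2, e3⟩ := jpsyl_map B x⁻¹ hB.2.1 hB.2.2.1
    refine ⟨?_, e1, e2, fun C hCT hCc hC2 => ?_⟩
    · rintro _ ⟨b, hb, rfl⟩
      show x⁻¹ * b * x⁻¹⁻¹ ∈ T
      rw [inv_inv]
      exact hx b (hB.1 hb)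
    · rw [e3]
      have hA₀S := h1 A₀ hA₀
      exact (hA₀.2.2.2 C hCT hCc hC2).trans (hB.2.2.2 A₀ hA₀S.1 hA₀S.2.1 hA₀S.2.2.1)
  have hle2 : Cfsg.thompsonSubgroupOf 2 S ≤
      (Cfsg.thompsonSubgroupOf 2 T).map (MulAut.conj x).toMonoidHom := by
    apply th_le_of_forall
    intro B hB
    have h3 := th_le T _ (h2 B hB)
    intro b hb
    refine ⟨x⁻¹ * b * x, h3 ⟨b, hb, ?_⟩, ?_⟩
    · show x⁻¹ * b * x⁻¹⁻¹ = x⁻¹ * b * x
      rw [inv_inv]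
    · show x * (x⁻¹ * b * x) * x⁻¹ = b
      group
  have hcard : Nat.card (Cfsg.thompsonSubgroupOf 2 S) ≤ Nat.card (Cfsg.thompsonSubgroupOf 2 T) := by
    have h4 := Subgroup.card_le_of_le hle2
    rwa [Subgroup.card_map_of_injective (MulAut.conj x).injective] at h4
  exact (Subgroup.eq_of_le_of_card_ge hle hcard).symm

end Cfsg.Agent.Lib.Helper3.JP
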