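import Mathlib
import Cfsg.Agent.Lib.Helper98.O72Defs

/-!
Project O72 (S5972, architect helper98), piece R2DIAG (helper3): an orthogonal basis, given as a
list, of a nondegenerate subspace of a symmetric bilinear form in characteristic not two.
-/

set_option autoImplicit false
set_option linter.unusedSectionVars false
set_option linter.unusedVariables false

namespace Cfsg.Agent.Lib.Helper98.O72

open Module Cfsg Cfsg.Agent.Lib.Helper96.Sp

section Abstract

variable {F : Type*} [Field F] [Fintype F] {V : Type*} [AddCommGroup V] [Module F V]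
  [FiniteDimensional F V] {B : LinearMap.BilinForm F V}

theorem r2diag_aux (hS : B.IsSymm) (hchar2 : (2 : F) ≠ 0) :
    ∀ (n : ℕ) (K : Submodule F V), finrank F K = n → ND B K →
    ∃ vs : List V, (∀ v ∈ vs, v ∈ K) ∧ vs.Pairwise (fun u v => B u v = 0) ∧
      (∀ v ∈ vs, B v v ≠ 0) ∧ vs.length = finrank F K ∧
      Submodule.span F {v | v ∈ vs} = K := by
  intro n
  induction n with
  | zero =>
    intro K hn hK
    have hbot : K = ⊥ := Submodule.finrank_eq_zero.mp hn
    refine ⟨[], by simp, List.Pairwise.nil, by simp, by simp [hn], ?_⟩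
    rw [hbot]
    simp
  | succ n ih =>
    intro K hn hK
    -- an anisotropic vector of K
    obtain ⟨v, hvK, hvv⟩ : ∃ v ∈ K, B v v ≠ 0 := by
      by_contra hcon
      push Not at hcon
      have hzero : ∀ u ∈ K, ∀ w ∈ K, B u w = 0 := by
        intro u hu w hw
        have h1 := hcon (u + w) (K.add_mem hu hw)
        have h2 := hcon u hu
        have h3 := hcon w hw
        have h4 : B w u = B u w := sym_swap hS hchar2 w u
        simp only [map_add, LinearMap.add_apply] at h1
        rw [h2, h3, h4] at h1
        have h5 : (2 : F) * B u w = 0 := by linear_combination h1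
        rcases mul_eq_zero.mp h5 with h | h
        · exact absurd h hchar2
        · exact h
      have hbot : K = ⊥ := by
        rw [eq_bot_iff]
        intro u hu
        rw [Submodule.mem_bot]
        exact hK u hu (hzero u hu)
      rw [hbot, finrank_bot] at hn
      omega
    have hv0 : v ≠ 0 := by
      rintro rfl
      simp at hvv
    set W : Submodule F V := Submodule.span F {v} with hW
    have hWK : W ≤ K := by
      rw [hW, Submodule.span_le]
      intro x hx
      rw [Set.mem_singleton_iff] at hx
      rw [hx]; exact hvK
    have hWnd : ND B W := by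
      intro u hu h
      obtain ⟨c, rfl⟩ := Submodule.mem_span_singleton.mp hu
      have h1 := h v (Submodule.mem_span_singleton_self v)
      rw [map_smul, LinearMap.smul_apply, smul_eq_mul] at h1
      rcases mul_eq_zero.mp h1 with h | h
      · rw [h, zero_smul]
      · exact absurd h hvv
    obtain ⟨hK'nd, hsup, hfin⟩ := nd_rel hS hchar2 hWnd hK hWK
    have hW1 : finrank F W = 1 := finrank_span_singleton hv0
    have hK'n : finrank F ↥(K ⊓ B.orthogonal W) = n := by omega
    obtain ⟨vs, hvsK, hpw, hne, hlen, hspan⟩ := ih (K ⊓ B.orthogonal W) hK'n hK'nd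
    refine ⟨v :: vs, ?_, ?_, ?_, ?_, ?_⟩
    · intro x hx
      rcases List.mem_cons.mp hx with rfl | hx
      · exact hvK
      · exact (hvsK x hx).1
    · rw [List.pairwise_cons]
      refine ⟨?_, hpw⟩
      intro a ha
      have h1 : a ∈ B.orthogonal W := (hvsK a ha).2
      have h2 := (mem_perp_iff' hS hchar2).mp h1 v (Submodule.mem_span_singleton_self v)
      rw [sym_swap hS hchar2, h2]
    · intro x hx
      rcases List.mem_cons.mp hx with rfl | hx
      · exact hvv
      · exact hne x hx
    · rw [List.length_cons, hlen, hK'n, hn]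
    · have hset : {x | x ∈ v :: vs} = insert v {x | x ∈ vs} := by
        ext x
        simp [List.mem_cons]
      rw [hset, Submodule.span_insert, hspan]
      exact hsup

/-- PIECE R2DIAG: an orthogonal basis (as a list) of a nondegenerate subspace. -/
theorem exists_orth_list (hS : B.IsSymm) (hchar2 : (2 : F) ≠ 0) (K : Submodule F V)
    (hK : ND B K) :
    ∃ vs : List V, (∀ v ∈ vs, v ∈ K) ∧ vs.Pairwise (fun u v => B u v = 0) ∧
      (∀ v ∈ vs, B v v ≠ 0) ∧ vs.length = finrank F K ∧
      Submodule.span F {v | v ∈ vs} = K :=
  r2diag_aux hS hchar2 (finrank F K) K rfl hK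

end Abstract

end Cfsg.Agent.Lib.Helper98.O72
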