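import Mathlib
import Cfsg.Prelude.Def_GeometricClasses
import Cfsg.Prelude.Def_LieClassical

/-! Project O9 (helper44; S5835), piece PAIRaS (helper3): the isotypic blocks of a group of
isometries of a symmetric form are paired by the form.  Twin of `Helper76/SPPPAIRa.lean`
(helper76), with the symmetric form in place of the symplectic one. -/

set_option autoImplicit false

namespace Cfsg.Agent.Lib.Helper44.O9

open Matrix Cfsg.Geo
open scoped Kronecker

set_option linter.unusedSectionVars false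

variable {n : ℕ} {F : Type*} [Field F] [Fintype F]

/-- The form as a Mathlib bilinear form. -/
noncomputable def PAIRaS_bf (f : (Fin n → F) → (Fin n → F) → F) (hb : IsBilinearForm f) :
    LinearMap.BilinForm F (Fin n → F) :=
  LinearMap.mk₂ F f hb.add_left hb.smul_left hb.add_right hb.smul_right

theorem PAIRaS_bf_apply (f : (Fin n → F) → (Fin n → F) → F) (hb : IsBilinearForm f)
    (u v : Fin n → F) : PAIRaS_bf f hb u v = f u v := rfl

theorem PAIRaS_bf_nondeg (f : (Fin n → F) → (Fin n → F) → F) (hf : IsSymmetricForm f) :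
    (PAIRaS_bf f hf.bilinear).Nondegenerate := by
  constructor
  · intro x hx
    by_contra h0
    obtain ⟨y, hy⟩ := (hf.nondegenerate x h0).2
    exact hy (hx y)
  · intro y hy
    by_contra h0
    obtain ⟨x, hx⟩ := (hf.nondegenerate y h0).1
    exact hx (hy x)

/-- Existence of the adjoint of a matrix. -/
theorem PAIRaS_exists_adjoint (f : (Fin n → F) → (Fin n → F) → F) (hf : IsSymmetricForm f)
    (X : Matrix (Fin n) (Fin n) F) :
    ∃ Y : Matrix (Fin n) (Fin n) F, ∀ u v, f (Y *ᵥ u) v = f u (X *ᵥ v) := by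
  have hB := PAIRaS_bf_nondeg f hf
  refine ⟨LinearMap.toMatrix' ((PAIRaS_bf f hf.bilinear).leftAdjointOfNondegenerate hB
    (Matrix.toLin' X)), fun u v => ?_⟩
  have h := LinearMap.BilinForm.isAdjointPairLeftAdjointOfNondegenerate (PAIRaS_bf f hf.bilinear) hB
    (Matrix.toLin' X) u v
  rw [← Matrix.toLin'_apply, Matrix.toLin'_toMatrix', ← Matrix.toLin'_apply]
  exact h

/-- The adjoint of a matrix commuting with a group of isometries commutes with the group. -/
theorem PAIRaS_adj_comm (f : (Fin n → F) → (Fin n → F) → F) (hf : IsSymmetricForm f)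
    (L : Subgroup (GL (Fin n) F)) (hfix : FixesForm (matrixSet L) f)
    (X : Matrix (Fin n) (Fin n) F) (hX : ∀ x ∈ L, X * x.1 = x.1 * X) :
    ∃ Y : Matrix (Fin n) (Fin n) F, (∀ x ∈ L, Y * x.1 = x.1 * Y) ∧
      ∀ u v, f (Y *ᵥ u) v = f u (X *ᵥ v) := by
  obtain ⟨Y, hY⟩ := PAIRaS_exists_adjoint f hf X
  refine ⟨Y, fun x hx => ?_, hY⟩
  have hfx : ∀ u v, f (x.1 *ᵥ u) (x.1 *ᵥ v) = f u v :=
    fun u v => hfix x.1 ⟨x, hx, rfl⟩ u v
  have hxx : x.1 * (x⁻¹).1 = 1 := by
    rw [← Units.val_mul, mul_inv_cancel, Units.val_one]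
  have key : ∀ u v, f ((Y * x.1) *ᵥ u) v = f ((x.1 * Y) *ᵥ u) v := by
    intro u v
    rw [← Matrix.mulVec_mulVec, hY, ← Matrix.mulVec_mulVec]
    have h1 := hfx (Y *ᵥ u) ((x⁻¹).1 *ᵥ v)
    rw [Matrix.mulVec_mulVec _ x.1 (x⁻¹).1, hxx, Matrix.one_mulVec] at h1
    rw [h1, hY, Matrix.mulVec_mulVec _ X, hX x⁻¹ (inv_mem hx), ← Matrix.mulVec_mulVec]
    have h2 := hfx u ((x⁻¹).1 *ᵥ (X *ᵥ v))
    rw [Matrix.mulVec_mulVec _ x.1 (x⁻¹).1, hxx, Matrix.one_mulVec] at h2
    exact h2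
  apply Matrix.toLin'.injective
  apply LinearMap.ext
  intro u
  rw [Matrix.toLin'_apply, Matrix.toLin'_apply]
  by_contra hne
  have hne' : (Y * x.1) *ᵥ u - (x.1 * Y) *ᵥ u ≠ 0 := sub_ne_zero.mpr hne
  obtain ⟨w, hw⟩ := (hf.nondegenerate _ hne').2
  apply hw
  have hsub : ∀ a b c : Fin n → F, f (a - b) c = f a c - f b c := by
    intro a b c
    have := hf.bilinear.add_left (a - b) b c
    rw [sub_add_cancel] at this
    rw [this, add_sub_cancel_right]
  rw [hsub, key u w, sub_self]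

/-- The projection onto a block of a decomposition along the other blocks, as a matrix
commuting with every group preserving the blocks. -/
theorem PAIRaS_exists_proj (L : Subgroup (GL (Fin n) F)) {t m : ℕ}
    (D : Fin t → Submodule F (Fin n → F)) (hD : IsMDecomposition m D)
    (hinv : ∀ i, ∀ x ∈ L, (D i).map (Matrix.toLin' x.1) ≤ D i) (j : Fin t) :
    ∃ P : Matrix (Fin n) (Fin n) F, (∀ x ∈ L, P * x.1 = x.1 * P) ∧
      (∀ v ∈ D j, P *ᵥ v = v) ∧ (∀ l, l ≠ j → ∀ v ∈ D l, P *ᵥ v = 0) := by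
  classical
  have hc : IsCompl (D j) (⨆ (l) (_ : l ≠ j), D l) := by
    refine ⟨hD.indep j, codisjoint_iff.mpr ?_⟩
    rw [← iSup_split_single D j]
    exact hD.iSup_eq_top
  set E : Submodule F (Fin n → F) := ⨆ (l) (_ : l ≠ j), D l with hE
  set p : (Fin n → F) →ₗ[F] (Fin n → F) :=
    (D j).subtype ∘ₗ Submodule.projectionOnto (D j) E hc with hp
  have hpl : ∀ a ∈ D j, p a = a := by
    intro a ha
    have h1 := Submodule.projectionOnto_apply_left hc ⟨a, ha⟩
    show ((Submodule.projectionOnto (D j) E hc a : D j) : Fin n → F) = a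
    exact congrArg Subtype.val h1
  have hpr : ∀ b ∈ E, p b = 0 := by
    intro b hb
    have h1 := Submodule.projectionOnto_apply_right hc ⟨b, hb⟩
    show ((Submodule.projectionOnto (D j) E hc b : D j) : Fin n → F) = 0
    exact congrArg Subtype.val h1
  have hEinv : ∀ x ∈ L, ∀ b ∈ E, x.1 *ᵥ b ∈ E := by
    intro x hx b hb
    have h1 : E.map (Matrix.toLin' x.1) ≤ E := by
      rw [hE, Submodule.map_iSup]
      refine iSup_mono (fun l => ?_)
      rw [Submodule.map_iSup]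
      exact iSup_mono (fun _ => hinv l x hx)
    have h2 := h1 ⟨b, hb, rfl⟩
    rwa [Matrix.toLin'_apply] at h2
  have hDinv : ∀ x ∈ L, ∀ a ∈ D j, x.1 *ᵥ a ∈ D j := by
    intro x hx a ha
    have h2 := hinv j x hx ⟨a, ha, rfl⟩
    rwa [Matrix.toLin'_apply] at h2
  refine ⟨LinearMap.toMatrix' p, fun x hx => ?_, fun v hv => ?_, fun l hl v hv => ?_⟩
  · apply Matrix.toLin'.injective
    apply LinearMap.ext
    intro v
    rw [Matrix.toLin'_mul, Matrix.toLin'_mul, Matrix.toLin'_toMatrix']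
    show p (Matrix.toLin' x.1 v) = Matrix.toLin' x.1 (p v)
    rw [Matrix.toLin'_apply, Matrix.toLin'_apply]
    have hv : v ∈ D j ⊔ E := by rw [hc.sup_eq_top]; exact Submodule.mem_top
    obtain ⟨a, ha, b, hb, rfl⟩ := Submodule.mem_sup.mp hv
    rw [Matrix.mulVec_add, map_add, map_add, hpl a ha, hpr b hb, add_zero,
      hpl _ (hDinv x hx a ha), hpr _ (hEinv x hx b hb), add_zero]
  · rw [← Matrix.toLin'_apply, Matrix.toLin'_toMatrix']
    exact hpl v hv
  · rw [← Matrix.toLin'_apply, Matrix.toLin'_toMatrix']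
    exact hpr v (le_iSup₂ (f := fun l (_ : l ≠ j) => D l) l hl hv)

/-- PAIRaS: the isotypic blocks of a group of isometries are paired by the form. -/
theorem PAIRaS (f : (Fin n → F) → (Fin n → F) → F) (hf : IsSymmetricForm f)
    (L : Subgroup (GL (Fin n) F)) (hfix : FixesForm (matrixSet L) f) {t m : ℕ}
    (D : Fin t → Submodule F (Fin n → F)) (hD : IsMDecomposition m D)
    (hiso : ∀ i, ∀ X : Matrix (Fin n) (Fin n) F, (∀ x ∈ L, X * x.1 = x.1 * X) →
      (D i).map (Matrix.toLin' X) ≤ D i)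
    (hinv : ∀ i, ∀ x ∈ L, (D i).map (Matrix.toLin' x.1) ≤ D i)
    (hfull : ∀ i, ∀ W : Submodule F (Fin n → F), W ≤ D i →
      (∀ x ∈ L, W.map (Matrix.toLin' x.1) ≤ W) →
      (∀ X : Matrix (Fin n) (Fin n) F, (∀ x ∈ L, X * x.1 = x.1 * X) →
        W.map (Matrix.toLin' X) ≤ W) →
      W = ⊥ ∨ W = D i) :
    ∃ τ : Fin t → Fin t, (∀ i, τ (τ i) = i) ∧
      (∀ i j, j ≠ τ i → AreOrthogonalFor f (D i) (D j)) ∧
      (∀ i, ¬ AreOrthogonalFor f (D i) (D (τ i))) := by
  classical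
  have hBn : (PAIRaS_bf f hf.bilinear).Nondegenerate := PAIRaS_bf_nondeg f hf
  have hfx : ∀ x ∈ L, ∀ u v, f (x.1 *ᵥ u) (x.1 *ᵥ v) = f u v :=
    fun x hx u v => hfix x.1 ⟨x, hx, rfl⟩ u v
  have hinv' : ∀ i, ∀ x ∈ L, ∀ v ∈ D i, x.1 *ᵥ v ∈ D i := by
    intro i x hx v hv
    have h2 := hinv i x hx ⟨v, hv, rfl⟩
    rwa [Matrix.toLin'_apply] at h2
  have hiso' : ∀ i, ∀ X : Matrix (Fin n) (Fin n) F, (∀ x ∈ L, X * x.1 = x.1 * X) →
      ∀ v ∈ D i, X *ᵥ v ∈ D i := by
    intro i X hX v hv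
    have h2 := hiso i X hX ⟨v, hv, rfl⟩
    rwa [Matrix.toLin'_apply] at h2
  -- the orthogonal complement of a block is invariant
  have hDpL : ∀ i, ∀ x ∈ L, ∀ v ∈ (PAIRaS_bf f hf.bilinear).orthogonal (D i),
      x.1 *ᵥ v ∈ (PAIRaS_bf f hf.bilinear).orthogonal (D i) := by
    intro i x hx v hv u hu
    show f u (x.1 *ᵥ v) = 0
    have h1 := hfx x hx ((x⁻¹).1 *ᵥ u) v
    rw [Matrix.mulVec_mulVec, ← Units.val_mul, mul_inv_cancel, Units.val_one,
      Matrix.one_mulVec] at h1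
    rw [h1]
    exact hv _ (hinv' i x⁻¹ (inv_mem hx) u hu)
  have hDpC : ∀ i, ∀ X : Matrix (Fin n) (Fin n) F, (∀ x ∈ L, X * x.1 = x.1 * X) →
      ∀ v ∈ (PAIRaS_bf f hf.bilinear).orthogonal (D i),
        X *ᵥ v ∈ (PAIRaS_bf f hf.bilinear).orthogonal (D i) := by
    intro i X hX v hv u hu
    show f u (X *ᵥ v) = 0
    obtain ⟨Y, hY, hYa⟩ := PAIRaS_adj_comm f hf L hfix X hX
    rw [← hYa]
    exact hv _ (hiso' i Y hY u hu)
  -- dichotomy
  have hdich : ∀ i j, AreOrthogonalFor f (D i) (D j) ∨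
      D j ⊓ (PAIRaS_bf f hf.bilinear).orthogonal (D i) = ⊥ := by
    intro i j
    rcases hfull j (D j ⊓ (PAIRaS_bf f hf.bilinear).orthogonal (D i)) inf_le_left
      (by
        rintro x hx _ ⟨v, ⟨hv1, hv2⟩, rfl⟩
        rw [Matrix.toLin'_apply]
        exact ⟨hinv' j x hx v hv1, hDpL i x hx v hv2⟩)
      (by
        rintro X hX _ ⟨v, ⟨hv1, hv2⟩, rfl⟩
        rw [Matrix.toLin'_apply]
        exact ⟨hiso' j X hX v hv1, hDpC i X hX v hv2⟩) with h | h
    · exact Or.inr h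
    · left
      intro u hu v hv
      have hv' : v ∈ D j ⊓ (PAIRaS_bf f hf.bilinear).orthogonal (D i) := by rw [h]; exact hv
      exact hv'.2 u hu
  -- existence
  have hex : ∀ i, ∃ j, ¬ AreOrthogonalFor f (D i) (D j) := by
    intro i
    by_contra hcon
    push Not at hcon
    have hne : D i ≠ ⊥ := by
      intro h0
      have h1 := hD.finrank_eq i
      rw [h0, finrank_bot] at h1
      exact absurd h1.symm (Nat.pos_iff_ne_zero.mp hD.pos)
    obtain ⟨u, hu, hu0⟩ := Submodule.exists_mem_ne_zero_of_ne_bot hne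
    obtain ⟨y, hy⟩ := (hf.nondegenerate u hu0).2
    have hle : iSup D ≤ (PAIRaS_bf f hf.bilinear).orthogonal (D i) :=
      iSup_le (fun j v hv u' hu' => hcon j u' hu' v hv)
    have hy' : y ∈ (PAIRaS_bf f hf.bilinear).orthogonal (D i) :=
      hle (by rw [hD.iSup_eq_top]; exact Submodule.mem_top)
    exact hy (hy' u hu)
  -- uniqueness
  have huniq : ∀ i j k, ¬ AreOrthogonalFor f (D i) (D j) → ¬ AreOrthogonalFor f (D i) (D k) →
      j = k := by
    intro i j k hj hk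
    by_contra hjk
    have hTj := (hdich i j).resolve_left hj
    have hTk := (hdich i k).resolve_left hk
    obtain ⟨Pj, hPjC, hPj1, hPj0⟩ := PAIRaS_exists_proj L D hD hinv j
    obtain ⟨Pk, hPkC, hPk1, hPk0⟩ := PAIRaS_exists_proj L D hD hinv k
    have hW : (D j ⊔ D k) ⊓ (PAIRaS_bf f hf.bilinear).orthogonal (D i) = ⊥ := by
      rw [eq_bot_iff]
      rintro w ⟨hw1, hw2⟩
      obtain ⟨a, ha, b, hb, rfl⟩ := Submodule.mem_sup.mp hw1
      have h1 := hDpC i Pj hPjC _ hw2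
      rw [Matrix.mulVec_add, hPj1 a ha, hPj0 k (Ne.symm hjk) b hb, add_zero] at h1
      have h2 := hDpC i Pk hPkC _ hw2
      rw [Matrix.mulVec_add, hPk1 b hb, hPk0 j hjk a ha, zero_add] at h2
      have ha0 : a ∈ D j ⊓ (PAIRaS_bf f hf.bilinear).orthogonal (D i) := ⟨ha, h1⟩
      have hb0 : b ∈ D k ⊓ (PAIRaS_bf f hf.bilinear).orthogonal (D i) := ⟨hb, h2⟩
      rw [hTj] at ha0
      rw [hTk] at hb0
      rw [(Submodule.mem_bot F).mp ha0, (Submodule.mem_bot F).mp hb0, add_zero]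
      exact Submodule.zero_mem _
    have hdisj : D j ⊓ D k = ⊥ := (hD.indep.pairwiseDisjoint hjk).eq_bot
    have h1 := Submodule.finrank_sup_add_finrank_inf_eq (D j) (D k)
    rw [hdisj, finrank_bot, add_zero, hD.finrank_eq, hD.finrank_eq] at h1
    have h2 := Submodule.finrank_sup_add_finrank_inf_eq (D j ⊔ D k)
      ((PAIRaS_bf f hf.bilinear).orthogonal (D i))
    rw [hW, finrank_bot, add_zero, h1, LinearMap.BilinForm.finrank_orthogonal hBn,
      hD.finrank_eq] at h2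
    have h3 : Module.finrank F
        ((D j ⊔ D k ⊔ (PAIRaS_bf f hf.bilinear).orthogonal (D i) : Submodule F (Fin n → F))) ≤
        Module.finrank F (Fin n → F) := Submodule.finrank_le _
    have h4 : m ≤ Module.finrank F (Fin n → F) := by
      rw [← hD.finrank_eq i]; exact Submodule.finrank_le _
    have h5 := hD.pos
    omega
  -- the pairing
  choose τ hτ using hex
  refine ⟨τ, fun i => ?_, fun i j hj => ?_, hτ⟩
  · have h1 : ¬ AreOrthogonalFor f (D (τ i)) (D i) := by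
      intro h
      apply hτ i
      intro u hu v hv
      rw [hf.symm, h v hv u hu]
    exact huniq (τ i) _ _ (hτ (τ i)) h1
  · by_contra h
    exact hj (huniq i _ _ h (hτ i))

end Cfsg.Agent.Lib.Helper44.O9
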