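import Mathlib
import Cfsg.Prelude.Def_GeometricClasses
import Cfsg.Prelude.Def_LieClassical
import Cfsg.Agent.Lib.Helper71.SUP0
import Cfsg.Agent.Lib.Helper65.SLCN47

/-! Project SUQ (helper50; S5841), piece NU4Q (helper3): `SU_n(q)` lies in no tensor product
subgroup: a Kronecker product `A ⊗ B` with both factors of size at least 2 which differs from `1`
by a map of rank at most one is `1`, and a unitary transvection is not `1`. -/

set_option autoImplicit false

namespace Cfsg.Agent.Lib.Helper3.SUQNU4Q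

open Matrix Cfsg.Geo
open scoped Kronecker

/-- pure tensors -/
def pt {F : Type*} [Field F] {n₁ n₂ : ℕ} (u : Fin n₁ → F) (w : Fin n₂ → F) :
    Fin n₁ × Fin n₂ → F := fun p => u p.1 * w p.2

theorem kron_pt {F : Type*} [Field F] {n₁ n₂ : ℕ} (A : Matrix (Fin n₁) (Fin n₁) F)
    (B : Matrix (Fin n₂) (Fin n₂) F) (u : Fin n₁ → F) (w : Fin n₂ → F) :
    (A ⊗ₖ B) *ᵥ pt u w = pt (A *ᵥ u) (B *ᵥ w) := by
  funext ⟨i, j⟩
  simp only [Matrix.mulVec, dotProduct, Matrix.kroneckerMap_apply, pt]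
  rw [Fintype.sum_prod_type, Finset.sum_mul_sum]
  refine Finset.sum_congr rfl fun i' _ => Finset.sum_congr rfl fun j' _ => ?_
  ring

/-- a matrix for which every vector is proportional to its image is a scalar -/
theorem nu4q_scalar {F : Type*} [Field F] {m : ℕ} (hm : 2 ≤ m) (A : Matrix (Fin m) (Fin m) F)
    (h : ∀ u : Fin m → F, ∃ μ : F, u = μ • A *ᵥ u) : ∃ α : F, ∀ u, A *ᵥ u = α • u := by
  classical
  choose μ hμ using fun i : Fin m => h (Pi.single i 1)
  have hμ0 : ∀ i, μ i ≠ 0 := by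
    intro i h0
    have h3 := congrFun (hμ i) i
    rw [h0, zero_smul] at h3
    simp at h3
  have hA : ∀ i, A *ᵥ Pi.single i 1 = (μ i)⁻¹ • Pi.single i 1 := by
    intro i
    calc A *ᵥ Pi.single i 1 = (μ i)⁻¹ • (μ i • A *ᵥ Pi.single i 1) := by
          rw [smul_smul, inv_mul_cancel₀ (hμ0 i), one_smul]
      _ = (μ i)⁻¹ • Pi.single i 1 := by rw [← hμ i]
  have heq : ∀ i j, μ i = μ j := by
    intro i j
    by_cases hij : i = j
    · rw [hij]
    obtain ⟨ν, hν⟩ := h (Pi.single i 1 + Pi.single j 1)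
    rw [Matrix.mulVec_add, hA i, hA j] at hν
    have e1 := congrFun hν i
    have e2 := congrFun hν j
    simp [Pi.single_apply, hij, Ne.symm hij] at e1 e2
    have e1' : μ i = ν := by
      have h3 := congrArg (fun t => t * μ i) e1
      simp only [one_mul, mul_assoc, inv_mul_cancel₀ (hμ0 i), mul_one] at h3
      exact h3
    have e2' : μ j = ν := by
      have h3 := congrArg (fun t => t * μ j) e2
      simp only [one_mul, mul_assoc, inv_mul_cancel₀ (hμ0 j), mul_one] at h3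
      exact h3
    rw [e1', e2']
  let i₀ : Fin m := ⟨0, by omega⟩
  refine ⟨(μ i₀)⁻¹, fun u => ?_⟩
  have hA' : A = (μ i₀)⁻¹ • (1 : Matrix (Fin m) (Fin m) F) := by
    ext i j
    have h3 := congrFun (hA j) i
    rw [Matrix.mulVec_single_one] at h3
    rw [heq j i₀] at h3
    simp only [Matrix.smul_apply, Matrix.one_apply, smul_eq_mul]
    simp only [Pi.smul_apply, Pi.single_apply, smul_eq_mul] at h3
    exact h3
  rw [hA', Matrix.smul_mulVec, Matrix.one_mulVec]

/-- the linear algebra: `A ⊗ B = 1 + (rank ≤ 1)` forces `A ⊗ B = 1` -/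
theorem nu4q_kron {F : Type*} [Field F] {n₁ n₂ : ℕ} (h1 : 2 ≤ n₁) (h2 : 2 ≤ n₂)
    (A : Matrix (Fin n₁) (Fin n₁) F) (B : Matrix (Fin n₂) (Fin n₂) F)
    (c : Fin n₁ × Fin n₂ → F) (ℓ : (Fin n₁ × Fin n₂ → F) → F)
    (hadd : ∀ x y, ℓ (x + y) = ℓ x + ℓ y) (hsmul : ∀ (t : F) x, ℓ (t • x) = t * ℓ x)
    (hM : ∀ y, (A ⊗ₖ B) *ᵥ y = y + ℓ y • c) : A ⊗ₖ B = 1 := by
  classical
  let a0 : Fin n₁ := ⟨0, by omega⟩
  let a1 : Fin n₁ := ⟨1, by omega⟩
  let b0 : Fin n₂ := ⟨0, by omega⟩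
  let b1 : Fin n₂ := ⟨1, by omega⟩
  have ha : a0 ≠ a1 := by
    intro h
    have := congrArg Fin.val h
    simp [a0, a1] at this
  have hb : b0 ≠ b1 := by
    intro h
    have := congrArg Fin.val h
    simp [b0, b1] at this
  have s1 : ∀ u : Fin n₁ → F, ∃ w : Fin n₂ → F, w ≠ 0 ∧ ℓ (pt u w) = 0 := by
    intro u
    by_cases h0 : ℓ (pt u (Pi.single b0 1)) = 0
    · refine ⟨Pi.single b0 1, ?_, h0⟩
      intro h
      have h3 := congrFun h b0
      simp at h3
    · refine ⟨ℓ (pt u (Pi.single b1 1)) • Pi.single b0 1 -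
        ℓ (pt u (Pi.single b0 1)) • Pi.single b1 1, ?_, ?_⟩
      · intro h
        have h3 := congrFun h b1
        simp [Pi.single_apply, hb, hb.symm] at h3
        exact h0 h3
      · have e : ∀ (s t : F) (x y : Fin n₂ → F),
            pt u (s • x - t • y) = s • pt u x + (-t) • pt u y := by
          intro s t x y
          funext p
          simp only [pt, Pi.sub_apply, Pi.smul_apply, Pi.add_apply, smul_eq_mul]
          ring
        rw [e, hadd, hsmul, hsmul]
        ring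
  have s1' : ∀ w : Fin n₂ → F, ∃ u : Fin n₁ → F, u ≠ 0 ∧ ℓ (pt u w) = 0 := by
    intro w
    by_cases h0 : ℓ (pt (Pi.single a0 1) w) = 0
    · refine ⟨Pi.single a0 1, ?_, h0⟩
      intro h
      have h3 := congrFun h a0
      simp at h3
    · refine ⟨ℓ (pt (Pi.single a1 1) w) • Pi.single a0 1 -
        ℓ (pt (Pi.single a0 1) w) • Pi.single a1 1, ?_, ?_⟩
      · intro h
        have h3 := congrFun h a1
        simp [Pi.single_apply, ha, ha.symm] at h3
        exact h0 h3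
      · have e : ∀ (s t : F) (x y : Fin n₁ → F),
            pt (s • x - t • y) w = s • pt x w + (-t) • pt y w := by
          intro s t x y
          funext p
          simp only [pt, Pi.sub_apply, Pi.smul_apply, Pi.add_apply, smul_eq_mul]
          ring
        rw [e, hadd, hsmul, hsmul]
        ring
  have s2 : ∀ u : Fin n₁ → F, ∃ μ : F, u = μ • A *ᵥ u := by
    intro u
    obtain ⟨w, hw0, hw⟩ := s1 u
    have h3 := hM (pt u w)
    rw [hw, zero_smul, add_zero, kron_pt] at h3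
    obtain ⟨j, hj⟩ : ∃ j, w j ≠ 0 := by
      by_contra hc
      push Not at hc
      exact hw0 (funext hc)
    refine ⟨(B *ᵥ w) j / w j, ?_⟩
    funext i
    have h4 := congrFun h3 (i, j)
    simp only [pt] at h4
    simp only [Pi.smul_apply, smul_eq_mul]
    field_simp
    linear_combination -h4
  have s2' : ∀ w : Fin n₂ → F, ∃ μ : F, w = μ • B *ᵥ w := by
    intro w
    obtain ⟨u, hu0, hu⟩ := s1' w
    have h3 := hM (pt u w)
    rw [hu, zero_smul, add_zero, kron_pt] at h3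
    obtain ⟨i, hi⟩ : ∃ i, u i ≠ 0 := by
      by_contra hc
      push Not at hc
      exact hu0 (funext hc)
    refine ⟨(A *ᵥ u) i / u i, ?_⟩
    funext j
    have h4 := congrFun h3 (i, j)
    simp only [pt] at h4
    simp only [Pi.smul_apply, smul_eq_mul]
    field_simp
    linear_combination -h4
  obtain ⟨α, hα⟩ := nu4q_scalar h1 A s2
  obtain ⟨β, hβ⟩ := nu4q_scalar h2 B s2'
  have s4 : ∀ (u : Fin n₁ → F) (w : Fin n₂ → F), (α * β - 1) • pt u w = ℓ (pt u w) • c := by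
    intro u w
    have h3 := hM (pt u w)
    rw [kron_pt, hα, hβ] at h3
    funext p
    have h4 := congrFun h3 p
    simp only [pt, Pi.smul_apply, Pi.add_apply, smul_eq_mul] at h4 ⊢
    linear_combination h4
  have hab : α * β = 1 := by
    by_contra hne
    have hne' : α * β - 1 ≠ 0 := sub_ne_zero.mpr hne
    have e1 := congrFun (s4 (Pi.single a0 1) (Pi.single b0 1)) (a0, b0)
    have e2 := congrFun (s4 (Pi.single a0 1) (Pi.single b0 1)) (a1, b1)
    have e3 := congrFun (s4 (Pi.single a1 1) (Pi.single b1 1)) (a1, b1)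
    simp only [pt, Pi.smul_apply, smul_eq_mul, Pi.single_eq_same, mul_one] at e1 e3
    simp only [pt, Pi.smul_apply, smul_eq_mul, Pi.single_eq_same, mul_one,
      Pi.single_eq_of_ne ha.symm, mul_zero, zero_mul] at e2
    have hl : ℓ (pt (Pi.single a0 1) (Pi.single b0 1)) ≠ 0 := by
      intro h0
      rw [h0, zero_mul] at e1
      exact hne' e1
    have hc1 : c (a1, b1) = 0 := by
      rcases mul_eq_zero.mp e2.symm with h | h
      · exact absurd h hl
      · exact h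
    rw [hc1, mul_zero] at e3
    exact hne' e3
  ext p p'
  have e : (Pi.single p' 1 : Fin n₁ × Fin n₂ → F) = pt (Pi.single p'.1 1) (Pi.single p'.2 1) := by
    funext x
    obtain ⟨x1, x2⟩ := x
    obtain ⟨p1, p2⟩ := p'
    simp only [pt, Pi.single_apply, Prod.mk.injEq]
    by_cases h3 : x1 = p1
    · by_cases h4 : x2 = p2
      · simp [h3, h4]
      · simp [h3, h4]
    · simp [h3]
  have h3 := hM (Pi.single p' 1)
  have h5 := s4 (Pi.single p'.1 1) (Pi.single p'.2 1)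
  rw [hab, sub_self, zero_smul] at h5
  rw [e, ← h5, add_zero, ← e] at h3
  have h6 := congrFun h3 p
  rw [Matrix.mulVec_single_one] at h6
  rw [Matrix.one_apply]
  simp only [Pi.single_apply] at h6
  exact h6

variable {n : ℕ} {F : Type*} [Field F] [Fintype F] {q : ℕ}

/-- NU4Q: `SU_n(q)` lies in no tensor product subgroup. -/
theorem NU4Q (hF : Fintype.card F = q ^ 2) (hn : 4 ≤ n) {n₁ n₂ : ℕ} (h1 : 2 ≤ n₁)
    (h2 : 2 ≤ n₂) (e : Fin n ≃ Fin n₁ × Fin n₂) (P : GL (Fin n) F) :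
    ¬ (Cfsg.GU n F q ⊓ specialLinear (Fin n) F) ≤ tensorProductSubgroup n₁ n₂ e P := by
  classical
  intro hle
  -- a non-zero isotropic vector
  obtain ⟨v, hv0, hvv⟩ : ∃ v : Fin n → F, v ≠ 0 ∧ Cfsg.hermForm n F q v v = 0 := by
    obtain ⟨a, b, ha, hb, hab⟩ := Cfsg.Agent.Lib.Helper71.SUP.exists_iso_pair hF
      (by omega : 2 ≤ n) (Pi.single (⟨0, by omega⟩ : Fin n) 1)
    by_cases ha0 : a = 0
    · refine ⟨b, ?_, hb⟩
      intro hb0
      rw [ha0, hb0, add_zero] at hab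
      have h3 := congrFun hab (⟨0, by omega⟩ : Fin n)
      simp at h3
    · exact ⟨a, ha0, ha⟩
  obtain ⟨a, ha0, ha⟩ := Cfsg.Agent.Lib.Helper71.SUP.exists_mu (q := q) hF
  obtain ⟨t, ht, -, -, htx, -⟩ := Cfsg.Agent.Lib.Helper71.SUP.exists_tv hF v a hvv ha
  obtain ⟨_, ⟨k, hk, rfl⟩, hkt⟩ := hle ht
  obtain ⟨A, B, hAB⟩ := hk
  have hAB' : (k : Matrix (Fin n₁ × Fin n₂) (Fin n₁ × Fin n₂) F) = A.1 ⊗ₖ B.1 := hAB
  have hinjP := Cfsg.Agent.Lib.Helper65.SLCN47.mulVec_gl_injective P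
  -- the action of `t` on `P (y ∘ e)`
  have hact : ∀ y : Fin n₁ × Fin n₂ → F,
      t.1 *ᵥ (P.1 *ᵥ (y ∘ e)) = P.1 *ᵥ ((k.1 *ᵥ y) ∘ e) := by
    intro y
    rw [← hkt]
    have e1 : ((MulAut.conj P).toMonoidHom ((glReindex e.symm).toMonoidHom k) : GL (Fin n) F) =
        P * glReindex e.symm k * P⁻¹ := rfl
    rw [e1, Units.val_mul, Units.val_mul, Matrix.mulVec_mulVec, mul_assoc, mul_assoc,
      ← Units.val_mul P⁻¹ P, inv_mul_cancel, Units.val_one, mul_one, ← Matrix.mulVec_mulVec,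
      Cfsg.Agent.Lib.Helper65.SLCN47.glReindex_mulVec]
  -- the vector `c` with `P (c ∘ e) = v`
  have hc : P.1 *ᵥ ((((P⁻¹ : GL (Fin n) F).1 *ᵥ v) ∘ e.symm) ∘ e) = v := by
    have e2 : (((P⁻¹ : GL (Fin n) F).1 *ᵥ v) ∘ e.symm) ∘ e = (P⁻¹ : GL (Fin n) F).1 *ᵥ v := by
      funext i
      simp
    rw [e2, Matrix.mulVec_mulVec, ← Units.val_mul, mul_inv_cancel, Units.val_one,
      Matrix.one_mulVec]
  have hM : ∀ y : Fin n₁ × Fin n₂ → F, (A.1 ⊗ₖ B.1) *ᵥ y =
      y + (a * Cfsg.hermForm n F q (P.1 *ᵥ (y ∘ e)) v) •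
        (((P⁻¹ : GL (Fin n) F).1 *ᵥ v) ∘ e.symm) := by
    intro y
    have h3 := hact y
    rw [htx] at h3
    have h4 : P.1 *ᵥ (y ∘ e) + (a * Cfsg.hermForm n F q (P.1 *ᵥ (y ∘ e)) v) • v =
        P.1 *ᵥ ((y + (a * Cfsg.hermForm n F q (P.1 *ᵥ (y ∘ e)) v) •
          (((P⁻¹ : GL (Fin n) F).1 *ᵥ v) ∘ e.symm)) ∘ e) := by
      have e3 : (y + (a * Cfsg.hermForm n F q (P.1 *ᵥ (y ∘ e)) v) •
          (((P⁻¹ : GL (Fin n) F).1 *ᵥ v) ∘ e.symm)) ∘ e =
          y ∘ e + (a * Cfsg.hermForm n F q (P.1 *ᵥ (y ∘ e)) v) •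
            ((((P⁻¹ : GL (Fin n) F).1 *ᵥ v) ∘ e.symm) ∘ e) := by
        funext i
        simp
      rw [e3, Matrix.mulVec_add, Matrix.mulVec_smul, hc]
    rw [h4] at h3
    have h5 := hinjP h3
    rw [← hAB']
    funext p
    have h6 := congrFun h5 (e.symm p)
    simp only [Function.comp_apply, Equiv.apply_symm_apply] at h6
    exact h6.symm
  have hadd : ∀ x y : Fin n₁ × Fin n₂ → F,
      a * Cfsg.hermForm n F q (P.1 *ᵥ ((x + y) ∘ e)) v =
        a * Cfsg.hermForm n F q (P.1 *ᵥ (x ∘ e)) v +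
          a * Cfsg.hermForm n F q (P.1 *ᵥ (y ∘ e)) v := by
    intro x y
    have e3 : (x + y) ∘ e = x ∘ e + y ∘ e := by
      funext i
      simp
    rw [e3, Matrix.mulVec_add]
    unfold Cfsg.hermForm
    simp only [Pi.add_apply, add_mul, Finset.sum_add_distrib, mul_add]
  have hsmul : ∀ (s : F) (x : Fin n₁ × Fin n₂ → F),
      a * Cfsg.hermForm n F q (P.1 *ᵥ ((s • x) ∘ e)) v =
        s * (a * Cfsg.hermForm n F q (P.1 *ᵥ (x ∘ e)) v) := by
    intro s x
    have e3 : (s • x) ∘ e = s • (x ∘ e) := by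
      funext i
      simp
    rw [e3, Matrix.mulVec_smul]
    unfold Cfsg.hermForm
    simp only [Pi.smul_apply, smul_eq_mul, mul_assoc, ← Finset.mul_sum]
    ring
  have hone := nu4q_kron h1 h2 A.1 B.1 _
    (fun y => a * Cfsg.hermForm n F q (P.1 *ᵥ (y ∘ e)) v) hadd hsmul hM
  -- so the transvection fixes every vector
  have hfix : ∀ x : Fin n → F, (a * Cfsg.hermForm n F q x v) • v = 0 := by
    intro x
    have h3 := hact (((P⁻¹ : GL (Fin n) F).1 *ᵥ x) ∘ e.symm)
    have e2 : P.1 *ᵥ ((((P⁻¹ : GL (Fin n) F).1 *ᵥ x) ∘ e.symm) ∘ e) = x := by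
      have e3 : (((P⁻¹ : GL (Fin n) F).1 *ᵥ x) ∘ e.symm) ∘ e = (P⁻¹ : GL (Fin n) F).1 *ᵥ x := by
        funext i
        simp
      rw [e3, Matrix.mulVec_mulVec, ← Units.val_mul, mul_inv_cancel, Units.val_one,
        Matrix.one_mulVec]
    rw [hAB', hone, Matrix.one_mulVec, e2, htx] at h3
    have h4 : x + (a * Cfsg.hermForm n F q x v) • v = x + 0 := by rw [add_zero]; exact h3
    exact add_left_cancel h4
  -- but `h x v ≠ 0` for a suitable basis vector `x`
  obtain ⟨i, hi⟩ : ∃ i, v i ≠ 0 := by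
    by_contra hcon
    push Not at hcon
    exact hv0 (funext hcon)
  have h3 := hfix (Pi.single i 1)
  have h4 : Cfsg.hermForm n F q (Pi.single i 1) v = v i ^ q := by
    unfold Cfsg.hermForm
    rw [Finset.sum_eq_single i]
    · simp
    · intro b _ hb
      simp [hb]
    · simp
  rw [h4] at h3
  have h5 := congrFun h3 i
  simp only [Pi.smul_apply, smul_eq_mul, Pi.zero_apply] at h5
  rcases mul_eq_zero.mp h5 with h6 | h6
  · rcases mul_eq_zero.mp h6 with h7 | h7
    · exact ha0 h7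
    · exact hi (pow_eq_zero_iff (by
        intro hq0
        rw [hq0] at hF
        have := Fintype.one_lt_card (α := F)
        omega) |>.mp h7)
  · exact hi h6

end Cfsg.Agent.Lib.Helper3.SUQNU4Q
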